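import Cfsg.Agent.Mon.Quot

/-! The centraliser of a type 2 involution in a group of Monster type is of Baby Monster type. -/

set_option autoImplicit false
set_option linter.unusedSectionVars false
set_option linter.unusedVariables false

namespace Cfsg.Agent.Mon

open Subgroup Cfsg.Agent.BG Cfsg.Agent.Invol Cfsg.Agent.LES Cfsg.Agent.Leech Cfsg.Agent.Golay

variable {G : Type*} [Group G] [Finite G] {Q T : Subgroup G} {z q r s t c d a b : G} {π : C1[z] →* Spor.Co1}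
  {P : G → LL → Prop} {v w x y : LL} {g k : CG}

theorem oc1 : EG.ofMask 13062145 ∈ GSupp := (ofMask_mem_supports_iff (by norm_num)).2 (by decide +kernel)
theorem oc2 : EG.ofMask 4038912 ∈ GSupp := (ofMask_mem_supports_iff (by norm_num)).2 (by decide +kernel)
def vO : LL := ⟨ind 2 (EG.ofMask 4038912), ind_two_mem oc2⟩

theorem nm_vO : nm (sg _ oc1 • vO - vO) = 32 := by
  have : ((sg _ oc1 • vO - vO : LL) : V) = fun i => (if i ∈ EG.ofMask 13062145 then -(vO : V) i else (vO : V) i) - (vO : V) i :=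
    rfl
  rw [nm, this]; decide +kernel

theorem comm_mem (h : Pair Q T z s) (hc : c ∈ T) (cz : Commute c z) (hq : q ∈ Q) (qs : Commute q s) :
    c * q * c⁻¹ * q⁻¹ ∈ Q ⊓ T :=
  ⟨Q.mul_mem (h.hQ.conj_mem cz hq) (Q.inv_mem hq), by
    rw [show c * q * c⁻¹ * q⁻¹ = c * (q * c⁻¹ * q⁻¹) by group]
    exact T.mul_mem hc (h.hP.conj_mem qs (T.inv_mem hc))⟩

namespace MT

variable (H : MT Q z π P)
include H

theorem ex_type2' (h : Pair Q T z s) (hs : P s (e8 none)) : ∃ a ∈ Q ⊓ T, ∃ y, P a y ∧ nm y = 32 := by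
  obtain ⟨c, hc, e⟩ := mem_NS.1 ((H.NS_e8 h hs).ge (⟨_, oc1, rfl⟩ : sg _ oc1 ∈ SG))
  obtain ⟨q, hq⟩ := H.exq vO
  exact ⟨_, comm_mem h hc e.cz (H.PQ hq) ((H.comm_iff hq hs).2 (by decide +kernel)), _,
    H.cong (H.mul (H.cj e hq) (H.inv hq)) (cg_sub _ _).symm, nm_vO⟩

theorem ex_type2 (h : Pair Q T z s) : ∃ a ∈ Q ⊓ T, ∃ y, P a y ∧ nm y = 32 := by
  obtain ⟨x, e, -⟩ := h.tr
  obtain ⟨k, hk⟩ := H.norm4 h.sQ (isConj_iff.2 ⟨x, e⟩) h.ne
  obtain ⟨a, ha, y, hy, e⟩ := (H.twist k).ex_type2' h hk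
  exact ⟨a, ha, _, hy, (nm_act _ _).trans e⟩

theorem ord32 (ht : P t v) (hv : nm v = 32) : orderOf t = 2 :=
  haveI : Fact (Nat.Prime 2) := ⟨Nat.prime_two⟩
  orderOf_eq_prime (by rw [pow_two, H.sq32 ht hv]) (H.ne_of ht (Or.inl hv)).1

theorem nwc2 (ht : P t v) (hv : nm v = 32) : ∃ d ∈ C1[t], d * z * d⁻¹ ∈ Q ∧ d * z * d⁻¹ ≠ z := by
  obtain ⟨x, hx, hne⟩ := H.nwc
  obtain ⟨a, ha, y, hy, e⟩ := H.ex_type2 (H.pair hx hne)
  obtain ⟨c, hc, e1⟩ := H.conj_nm hy ht (Or.inl e) (hv.trans e.symm)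
  have h1 : x⁻¹ * a * x ∈ Q := mem_cj.1 ha.2
  have h2 : IsConj a (x⁻¹ * a * x) := isConj_iff.2 ⟨x⁻¹, by simp⟩
  obtain ⟨y', hy', e'⟩ := H.type2 h1 (by
    rw [← H.ord32 hy e]; exact (orderOf_injective (MulAut.conj x⁻¹).toMonoidHom (MulAut.conj _).injective a).symm ▸ by simp)
    fun k => H.not_conj32 hy e (k.trans h2.symm)
  obtain ⟨c', hc', e2⟩ := H.conj_nm ht hy' (Or.inl hv) (e'.trans hv.symm)
  have e3 : c * x * c' * z * (c * x * c')⁻¹ = c * (x * z * x⁻¹) * c⁻¹ := by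
    rw [mul_assoc _ c', mem_cent1.1 hc']; group
  refine ⟨c * x * c', mem_cent1.2 (cj_eq_iff_comm.1 ?_), e3 ▸ H.le.conj_mem (mem_cent1.1 hc) hx, fun k => hne ?_⟩
  · rw [show c * x * c' * t * (c * x * c')⁻¹ = c * (x * (c' * t * c'⁻¹) * x⁻¹) * c⁻¹ by group, e2, ← e1]; group
  · rw [e3, mul_inv_eq_iff_eq_mul, ← mem_cent1.1 hc] at k
    exact mul_left_cancel k

theorem mem_T (ht : P t uu) (hq : P q x) (hr : P r y) :
    (q⁻¹ * r ∈ zpowers t ∨ (q * z)⁻¹ * r ∈ zpowers t) ↔ Cg y x ∨ Cg y (x + uu) := by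
  rw [mem_zp (H.ord32 ht nm_uu), mem_zp (H.ord32 ht nm_uu), inv_mul_eq_iff_eq_mul, inv_mul_eq_iff_eq_mul,
    inv_mul_eq_iff_eq_mul, inv_mul_eq_iff_eq_mul, mul_one, mul_one, mul_assoc, ← (H.es.zc t (H.PQ ht)).eq, ← mul_assoc,
    or_or_or_comm, ← H.eq_iff' hq hr, ← H.eq_iff' (H.mul hq ht) hr]
  exact or_congr ⟨Cg.symm, Cg.symm⟩ ⟨Cg.symm, Cg.symm⟩

theorem baby_hA (ht : P t uu) : ∀ d ∈ C1[t], (d * z * d⁻¹)⁻¹ * z ∈ zpowers t → Commute d z := fun d hd e => by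
  rcases (mem_zp (H.ord32 ht nm_uu)).1 e with e | e
  · exact cj_eq_iff_comm.1 (inv_mul_eq_one.1 e)
  · refine absurd (isConj_iff.2 ⟨d, ?_⟩) (H.not_conj32 (H.mulz (H.inv ht)) nm_uu)
    rw [← (H.es.zc _ (Q.inv_mem (H.PQ ht))).eq.symm, ← e]; group

theorem baby (ht : P t uu) [((zpowers t).subgroupOf C1[t]).Normal] :
    IsOfBabyMonsterType (C1[t] ⧸ (zpowers t).subgroupOf C1[t]) := by
  have t2 := H.ord32 ht nm_uu
  obtain ⟨t1, tz⟩ := H.ne_of ht (Or.inl nm_uu)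
  have tQ := H.PQ ht
  have zD : z ∈ C1[t] := mem_cent1.2 (H.es.zc t tQ).eq.symm
  have hA := H.baby_hA ht
  have z1 : z ∉ zpowers t := fun e => ((mem_zp t2).1 e).elim H.es.z1 (Ne.symm tz)
  have hc : ∀ x ∈ Q ⊓ C1[t], (∀ y ∈ Q ⊓ C1[t], Commute x y) → x ∈ zpowers t ∨ x⁻¹ * z ∈ zpowers t := fun x hx k => by
    rcases H.es.perp1 tQ hx.1 fun y hy e => (k y ⟨hy, mem_cent1.2 e⟩).symm with rfl | rfl | rfl | rfl
    · exact Or.inl (one_mem _)
    · exact Or.inr (by simp)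
    · exact Or.inl (mem_zpowers _)
    · refine Or.inr ?_
      rw [mul_inv_rev, mul_assoc, (H.es.zc _ (Q.inv_mem tQ)).eq]; simp
  have hn : ∃ x ∈ Q ⊓ C1[t], ∃ y ∈ Q ⊓ C1[t], ¬ Commute x y :=
    let ⟨a, ha, b, hb, h1, h2, h3⟩ := H.es.nab_cent H.h8 tQ; ⟨a, ⟨ha, mem_cent1.2 h1⟩, b, ⟨hb, mem_cent1.2 h2⟩, h3⟩
  have tl : zpowers t ≤ Q ⊓ C1[t] := zpowers_le.2 ⟨tQ, cent1_self t⟩
  have fixu : ∀ {m g}, m ∈ C1[t] → Rl π m g → g • uu = uu ∨ g • uu = -uu := fun hm hg =>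
    (H.stab' ht hg (mem_cent1.1 hm)).eq_or (by rw [nm_act, nm_uu]; norm_num) (by rw [nm_uu]; norm_num)
  have hex : ∀ m ∈ C1[t] ⊓ C1[z], ∃ g ∈ St1 uu, Rl π m g := fun m hm => by
    obtain ⟨g, hg⟩ := Rl.ex π (mem_cent1.1 hm.2)
    rcases fixu hm.1 hg with e | e
    · exact ⟨g, e, hg⟩
    · exact ⟨_, show (g * negC) • uu = uu by rw [mul_smul, negC_smul, smul_neg, e, neg_neg], hg.neg⟩
  have nu : ∀ g : St1 uu, g.1 ≠ negC := fun g e => by
    have : negC • uu = uu := e ▸ g.2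
    rw [negC_smul] at this
    exact absurd this (by decide +kernel)
  obtain ⟨l, hl⟩ := exists_lam (π := π) (MonoidHom.id (St1 uu)) (fun g e => absurd e (nu g)) _ hex
  have hl' : ∀ m, Rl π m.1 (l m).1 := fun m => let ⟨g, hg, e⟩ := hex m.1 m.2; (hl m ⟨g, hg⟩ e).symm ▸ e
  have ls : Function.Surjective l := fun g => by
    obtain ⟨c, hc, e⟩ := H.stab ht t1 tz (k := g.1) (by rw [g.2]; exact Cg.refl _)
    exact ⟨⟨c, mem_cent1.2 e, hc.1⟩, hl _ g hc⟩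
  have : Fact (Nat.Prime 3) := ⟨Nat.prime_three⟩
  obtain ⟨g0, hg0⟩ := exists_prime_orderOf_dvd_card' (G := St1 uu) 3 (by rw [card_Co2]; norm_num)
  obtain ⟨m, rfl⟩ := ls g0
  have := Rb_normal (zD := zD) H.le hA
  obtain ⟨hs, e, he⟩ := quot_setting (zD := zD) (w := 11) H.le hA z1 hc hn (by
    have := half H.es tQ t1 tz
    rw [inf_eq_left.2 tl, Nat.card_zpowers, t2, H.card] at *; omega) l ls (fun m => by
      rw [Subtype.ext_iff]
      refine ⟨fun e => ⟨m.1, ⟨(H.mem_iff (hl' m)).2 (Or.inl e), m.2.1⟩, by simp⟩, fun ⟨q, hq, e⟩ => ?_⟩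
      refine ((H.mem_iff (hl' m)).1 ?_).resolve_right (nu _)
      simpa using Q.mul_mem hq.1 (tl e).1) m
    (fun K hK hb => ((simple_Co2.eq_bot_or_eq_top_of_normal K hK).resolve_left hb) ▸ mem_top _)
    (fun n e => by
      have := orderOf_dvd_of_pow_eq_one e
      rw [hg0] at this
      exact absurd (Nat.Prime.dvd_of_dvd_pow Nat.prime_three this) (by norm_num))
    (by
      by_contra! n
      refine absurd hg0 ?_
      rw [show l m = 1 from Subtype.ext (co2_pair (l m).2 fun y hy => ?_), orderOf_one]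
      · norm_num
      obtain ⟨r, hr⟩ := H.exq y
      have := (H.mem_T ht hr (H.cj (hl' m) hr)).1 (or_iff_not_imp_left.2 (n r ⟨H.PQ hr,
        mem_cent1.2 ((H.comm_iff hr ht).2 (by rw [ip_comm, ip, hy.2]))⟩))
      have e1 : nm y = 32 := hy.1
      have e2 : ip uu y = 16 := hy.2
      have e3 : ip uu ((l m).1 • y) = 16 := by rw [← e2, ← ip_act (l m).1 uu y, (l m).2]
      have e4 : nm (uu - y) = 32 := by rw [nm_sub, nm_uu, e1, e2]; norm_num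
      refine this.imp (fun k => (k.eq_or (by rw [nm_act]; omega) (by omega)).resolve_right fun k => ?_) fun k =>
        ((k.trans (add_comm y uu ▸ (cg_sub _ _).symm)).eq_or (by rw [nm_act]; omega) (by omega)).resolve_right fun k => ?_
      · rw [k, ip, AddSubgroup.coe_neg, dot_neg_right] at e3; unfold ip at e2; omega
      · rw [k, ip, AddSubgroup.coe_neg, dot_neg_right, AddSubgroup.coe_sub, dot_sub_right, ← sqNorm_eq] at e3
        have := nm_uu; unfold ip nm at *; omega)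
    (H.nwc2 ht nm_uu)
  have hE := Rb_ES (zD := zD) H.es z1 hc hn
  have mem : ∀ {q} {x : leechPerpU}, P q x → q ∈ Q ⊓ C1[t] := fun {q x} hq =>
    ⟨H.PQ hq, mem_cent1.2 ((H.comm_iff hq ht).2 x.2)⟩
  let b : ∀ q ∈ Q ⊓ C1[t], Rb C1[t] (zpowers t) zD Q := fun q hq => ⟨th C1[t] (zpowers t) zD ⟨q, le_M H.es hq⟩, _, hq, rfl⟩
  have cen : ∀ a : Rb C1[t] (zpowers t) zD Q, a ∈ center _ ↔ a.1 = 1 ∨ a.1 = _ := fun a => by
    rw [hE.center', hE.mem_zp']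
  have key : ∀ {q r x y} (hq : P q x) (hr : P r y) q' r', (QuotientGroup.mk (b q q') : _ ⧸ center _) =
      QuotientGroup.mk (b r r') ↔ Cg y x ∨ Cg y (x + uu) := fun {q r x y} hq hr q' r' => by
    rw [← H.mem_T ht hq hr, QuotientGroup.eq, cen]
    refine or_congr ?_ ?_
    · exact inv_mul_eq_one.trans th_eq
    · refine inv_mul_eq_iff_eq_mul.trans ?_
      rw [eq_comm, ← map_mul]; exact th_eq
  choose σ hσ using H.exq
  refine ⟨_, _, this, hs, e.trans equivCo2, fun x => QuotientGroup.mk (b _ (mem (hσ x))), fun x y => ?_, fun a => ?_,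
    fun x => ?_, fun h g hg x y e' q hq => ?_⟩
  · refine ((key (hσ (x + y : leechPerpU)) (H.mul (hσ x) (hσ y)) (mem (hσ _)) (mul_mem (mem (hσ x)) (mem (hσ y)))).2 (Or.inl (Cg.refl _))).trans ?_
    rw [← QuotientGroup.mk_mul]
    exact congrArg _ <| Subtype.ext (map_mul (th C1[t] (zpowers t) zD) ⟨_, le_M H.es (mem (hσ x))⟩ ⟨_, le_M H.es (mem (hσ y))⟩)
  · obtain ⟨⟨_, q, hq, rfl⟩, rfl⟩ := QuotientGroup.mk_surjective a
    obtain ⟨v, hv⟩ := H.exv _ hq.1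
    let x : leechPerpU := ⟨v, (H.comm_iff hv ht).1 (mem_cent1.1 hq.2)⟩
    exact ⟨x, (key (hσ x) hv (mem (hσ x)) hq).2 (Or.inl (Cg.refl _))⟩
  · have : (QuotientGroup.mk (b 1 (one_mem _)) : _ ⧸ center _) = 1 := by
      rw [QuotientGroup.eq_one_iff, cen]; exact Or.inl (map_one (th C1[t] (zpowers t) zD))
    rw [← this, eq_comm, key H.one (hσ x) (one_mem _) (mem (hσ x)), cg_zero_iff, zero_add]
    refine or_congr Iff.rfl (exists_congr fun w => ?_)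
    rw [sub_eq_iff_eq_add', two_nsmul]
  · obtain ⟨m, rfl⟩ := th_surj (zD := zD) hA h
    rw [MulEquiv.trans_apply, he] at hg
    subst hg
    have k := H.cj (hl' m) (hσ x)
    have e2 : (l m).1 • (x : LL) = y := e'
    rw [e2] at k
    refine ((key (hσ y) k (mem (hσ y)) (mem k)).2 (Or.inl (Cg.refl _))).trans ?_
    rw [QuotientGroup.eq, cen] at hq ⊢
    have e3 : (b _ (mem k)).1 = th C1[t] (zpowers t) zD m * (b _ (mem (hσ x))).1 * (th C1[t] (zpowers t) zD m)⁻¹ := by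
      rw [← map_inv]
      exact (map_mul (th C1[t] (zpowers t) zD) (m * ⟨_, le_M H.es (mem (hσ x))⟩) m⁻¹).trans (by rw [map_mul])
    have e4 : ∀ a q : C1[zb C1[t] (zpowers t) zD], (th C1[t] (zpowers t) zD m * a * (th C1[t] (zpowers t) zD m)⁻¹)⁻¹ * (th C1[t] (zpowers t) zD m * q * (th C1[t] (zpowers t) zD m)⁻¹) =
      th C1[t] (zpowers t) zD m * (a⁻¹ * q) * (th C1[t] (zpowers t) zD m)⁻¹ := fun _ _ => by group
    show (b _ (mem k)).1⁻¹ * _ = 1 ∨ (b _ (mem k)).1⁻¹ * _ = _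
    rw [e3, e4]
    refine hq.imp (fun k => ?_) fun k => ?_
    · rw [show (b _ (mem (hσ x))).1⁻¹ * q.1 = 1 from k]; simp
    · rw [show (b _ (mem (hσ x))).1⁻¹ * q.1 = _ from k, mul_inv_eq_iff_eq_mul, ← map_mul, ← map_mul]
      congr 1; exact Subtype.ext (mem_cent1.1 m.2.2)

end MT

end Cfsg.Agent.Mon
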