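import Cfsg.Agent.Mon.Norm
import Cfsg.Agent.Perm.M24Loc

/-! Subgroups of order 3 of `C(z, s)` in a group of Monster type. -/

set_option autoImplicit false

namespace Cfsg.Agent.Mon

open Cfsg.Agent.Comp Cfsg.Agent.Golay Cfsg.Agent.Leech Cfsg.Agent.BG Cfsg.Agent.M24Loc MulAction Subgroup

variable {G : Type*} [Group G] [Finite G] {Q Y : Subgroup G} {z s : G} {π : C1[z] →* Spor.Co1} {P : G → LL → Prop}

theorem MT.norm3 (H : MT Q z π P) (hs : s ∈ Q) (hc : IsConj z s) (hne : s ≠ z) (hY : Y ≤ centralizer ({z, s} : Set G))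
    (h3 : #Y = 3) : ∃ π' P' β σ, MT Q z π' P' ∧ Y = zpowers β ∧ orderOf β = 3 ∧ Rl π' β (pm σ) ∧ (σ = y3 ∨ σ = x3B) ∧
      ((∃ S : Sylow 3 (centralizer ({z, s} : Set G)), Y.subgroupOf (centralizer ({z, s} : Set G)) ≤
        (center S).map (S : Subgroup (centralizer ({z, s} : Set G))).subtype) ↔ 27 ∣ #C1[σ]) := by
  obtain ⟨π, P, H, hs⟩ := H.norm8 hs hc hne
  obtain ⟨β, rfl, ho⟩ := exists_gen Nat.prime_three h3
  obtain ⟨π, P, τ, H, hs, h1, -, h2⟩ := H.norm_p hs (hY (mem_zpowers β)) Nat.prime_three (by decide) ho card_P3 (by norm_num)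
  obtain ⟨k, σ, e, hσ⟩ : ∃ k σ, k * τ * k⁻¹ = σ ∧ (σ = y3 ∨ σ = x3B) := by
    rcases three_cases h2 with ⟨k, e⟩ | ⟨k, e⟩
    · obtain ⟨l, e'⟩ := conj_x3A order_y3 fixS_y3
      exact ⟨l * k⁻¹, _, by rw [← e, ← e']; group, Or.inl rfl⟩
    · exact ⟨k⁻¹, _, by rw [← e]; group, Or.inr rfl⟩
  obtain ⟨π, P, H, hs, h1⟩ := H.conjNN hs h1 (pm_mem k)
  rw [← map_inv, ← map_mul, ← map_mul, e] at h1
  exact ⟨π, P, β, σ, H, rfl, ho, h1, hσ, H.central3 hs (hY (mem_zpowers β)) h1 ho⟩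

end Cfsg.Agent.Mon
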